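import Mathlib
import Cfsg.Agent.Lib.Helper31.Siegel.Defs

/-!
# Siegel package [CONJ]

Conjugation by an isometry `g` moves the Siegel transvection group `T(ℓ)` to `T(gℓ)`.
-/

set_option autoImplicit false
open scoped Matrix

namespace Cfsg.Agent.Lib.Helper94.Siegel

open Cfsg.Agent.Lib.Helper31.Siegel

universe u

section
variable {n : ℕ} {F : Type u} [Field F]

theorem isSingLine_act {p r : Vec n F} (h : IsSingLine p r) (g : ↥(Iso n F)) :
    IsSingLine (mat g *ᵥ p) (mat g *ᵥ r) := by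
  obtain ⟨hind, hp, hr, hpr⟩ := h
  refine ⟨?_, ?_, ?_, ?_⟩
  · rw [LinearIndependent.pair_iff] at hind ⊢
    intro s t hst
    apply hind s t
    have e : mat g *ᵥ (s • p + t • r) = 0 := by
      rw [Matrix.mulVec_add, Matrix.mulVec_smul, Matrix.mulVec_smul]
      exact hst
    have e2 := inv_act g (s • p + t • r)
    rw [e, Matrix.mulVec_zero] at e2
    exact e2.symm
  · rw [Q_act]; exact hp
  · rw [Q_act]; exact hr
  · rw [← Matrix.mulVec_add, Q_act]; exact hpr

theorem conj_mem_fixSet {p r : Vec n F} (g σ : ↥(Iso n F)) (hσ : σ ∈ fixSet p r) :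
    g * σ * g⁻¹ ∈ fixSet (mat g *ᵥ p) (mat g *ᵥ r) := by
  rw [mem_fixSet] at hσ ⊢
  intro v hvp hvr
  have h1 : B (mat g⁻¹ *ᵥ v) p = 0 := by
    rw [← B_act g, act_inv]; exact hvp
  have h2 : B (mat g⁻¹ *ᵥ v) r = 0 := by
    rw [← B_act g, act_inv]; exact hvr
  rw [mul_act, mul_act, hσ _ h1 h2, act_inv]

theorem conj_fixSet (p r : Vec n F) (g : ↥(Iso n F)) :
    (MulAut.conj g).toMonoidHom '' fixSet p r = fixSet (mat g *ᵥ p) (mat g *ᵥ r) := by
  ext τ
  constructor
  · rintro ⟨σ, hσ, rfl⟩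
    exact conj_mem_fixSet g σ hσ
  · intro hτ
    refine ⟨g⁻¹ * τ * g, ?_, ?_⟩
    · have h := conj_mem_fixSet g⁻¹ τ hτ
      rw [inv_act, inv_act, inv_inv] at h
      exact h
    · show g * (g⁻¹ * τ * g) * g⁻¹ = τ
      group

end

/-- Package [CONJ] of project Siegel. -/
theorem pkgConj : PkgConj.{u} := by
  intro n F _ p r hpr g
  refine ⟨isSingLine_act hpr g, ?_⟩
  unfold T
  show Subgroup.map (MulAut.conj g).toMonoidHom (Subgroup.closure (fixSet p r)) = _
  rw [MonoidHom.map_closure, conj_fixSet]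

end Cfsg.Agent.Lib.Helper94.Siegel
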