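import Mathlib
import Cfsg.Agent.Lib.Helper31.Siegel.Defs
import Cfsg.Agent.Lib.Helper94.Siegel.Conj

/-!
# Siegel package [R1]

Opposite singular lines in dual bases: the two Siegel transvection groups form a rank one pair.
-/

set_option autoImplicit false
open scoped Matrix

namespace Cfsg.Agent.Lib.Helper94.Siegel

open Cfsg.Agent.Lib.Helper31.Siegel

universe u

section
variable {n : ℕ} {F : Type u} [Field F]

theorem B_line_zero {s t : Vec n F} (h : IsSingLine s t) : B s t = 0 := by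
  obtain ⟨-, hs, ht, hst⟩ := h
  have := Q_add s t
  rw [hst, hs, ht] at this
  simpa using this.symm

theorem B_self_zero {s : Vec n F} (hs : QF n F s = 0) : B s s = 0 := by
  rw [B_self, hs, mul_zero]

/-- The groups `T p r` are commutative, hence nilpotent. -/
theorem T_nilpotent (hP : PkgParam.{u}) (hA : PkgAlg.{u}) {p r : Vec n F} (h : IsSingLine p r) :
    Group.IsNilpotent ↥(T p r) := by
  obtain ⟨-, hmul, -, -, -, -⟩ := hA n F p r h
  let _ : CommGroup ↥(T p r) :=
    { (inferInstance : Group ↥(T p r)) with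
      mul_comm := by
        intro x y
        obtain ⟨c, hc⟩ := (hP n F p r h x.1).mp x.2
        obtain ⟨d, hd⟩ := (hP n F p r h y.1).mp y.2
        apply Subtype.ext
        have h1 := hmul c d x.1 y.1 hc hd
        have h2 := hmul d c y.1 x.1 hd hc
        rw [add_comm] at h2
        exact isSiegel_ext h1 h2 }
  exact CommGroup.isNilpotent

/-- One direction of the rank one condition. -/
theorem rankOne_cond (hP : PkgParam.{u}) (hE : PkgExist.{u}) (hA : PkgAlg.{u})
    (hR : PkgRebase.{u}) {p r s t : Vec n F} (hpr : IsSingLine p r) (hst : IsSingLine s t)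
    (hps : B p s = 1) (hrt : B r t = 1) (hpt : B p t = 0) (hrs : B r s = 0) :
    Cfsg.RankOneCondition (T p r) (T s t) := by
  intro a haA ha1
  obtain ⟨c, hc⟩ := (hP n F p r hpr a).mp haA
  obtain ⟨-, -, hinvA, hone, -, -⟩ := hA n F p r hpr
  obtain ⟨-, -, hinvB, honeB, -, -⟩ := hA n F s t hst
  have hc0 : c ≠ 0 := fun h0 => ha1 ((hone c a hc).mpr h0)
  obtain ⟨b, hb⟩ := hE n F s t hst (-(1 / c))
  have hbB : b ∈ T s t := (hP n F s t hst b).mpr ⟨_, hb⟩
  have hb1 : b ≠ 1 := by
    intro h1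
    have := (honeB _ b hb).mp h1
    rw [neg_eq_zero] at this
    exact one_div_ne_zero hc0 this
  refine ⟨b, hbB, hb1, ?_⟩
  have hbinv : IsSiegel s t (1 / c) b⁻¹ := by
    have := hinvB _ b hb
    rwa [neg_neg] at this
  have hainv : IsSiegel p r (-c) a⁻¹ := hinvA c a hc
  have hsp : B s p = 1 := by rw [B_comm]; exact hps
  have hsr : B s r = 0 := by rw [B_comm]; exact hrs
  have htr : B t r = 1 := by rw [B_comm]; exact hrt
  have htp : B t p = 0 := by rw [B_comm]; exact hpt
  -- images of the basis vectors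
  have e1 : mat b⁻¹ *ᵥ p = p - (1 / c) • t := by
    rw [hbinv p, hpt, hps, mul_zero, zero_smul, add_zero, mul_one]
  have e2 : mat b⁻¹ *ᵥ r = r + (1 / c) • s := by
    rw [hbinv r, hrt, hrs, mul_zero, zero_smul, sub_zero, mul_one]
  have e3 : mat a⁻¹ *ᵥ s = s + c • r := by
    rw [hainv s, hsr, hsp, mul_zero, zero_smul, add_zero, mul_one, neg_smul, sub_neg_eq_add]
  have e4 : mat a⁻¹ *ᵥ t = t - c • p := by
    rw [hainv t, htr, htp, mul_zero, zero_smul, sub_zero, mul_one, neg_smul, ← sub_eq_add_neg]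
  have hreb : Reb (mat a⁻¹ *ᵥ s) (mat a⁻¹ *ᵥ t) (mat b⁻¹ *ᵥ p) (mat b⁻¹ *ᵥ r) := by
    refine ⟨0, -(1 / c), 1 / c, 0, ?_, ?_, ?_⟩
    · have : (1 / c) ≠ 0 := one_div_ne_zero hc0
      simp only [mul_zero, zero_sub, neg_mul, neg_neg]
      exact mul_ne_zero this this
    · rw [e1, e4, zero_smul, zero_add, smul_sub, smul_smul, neg_mul, one_div,
        inv_mul_cancel₀ hc0, neg_smul, neg_smul, one_smul]
      abel
    · rw [e2, e3, zero_smul, add_zero, smul_add, smul_smul, one_div, inv_mul_cancel₀ hc0,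
        one_smul]
      abel
  have hline : IsSingLine (mat a⁻¹ *ᵥ s) (mat a⁻¹ *ᵥ t) := isSingLine_act hst a⁻¹
  have h1 := (pkgConj n F p r hpr b⁻¹).2
  have h2 := (pkgConj n F s t hst a⁻¹).2
  rw [h1, h2]
  exact (hR n F _ _ _ _ hline hreb).2

end

/-- Package [R1] of project Siegel, from [PARAM], [EXIST], [ALG], [REBASE]. -/
theorem pkgR1_of (hP : PkgParam.{u}) (hE : PkgExist.{u}) (hA : PkgAlg.{u})
    (hR : PkgRebase.{u}) : PkgR1.{u} := by
  intro n F _ p r s t hpr hst hps hrt hpt hrs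
  have hsp : B s p = 1 := by rw [B_comm]; exact hps
  have hsr : B s r = 0 := by rw [B_comm]; exact hrs
  have htr : B t r = 1 := by rw [B_comm]; exact hrt
  have htp : B t p = 0 := by rw [B_comm]; exact hpt
  refine ⟨?_, T_nilpotent hP hA hpr, T_nilpotent hP hA hst,
    rankOne_cond hP hE hA hR hpr hst hps hrt hpt hrs,
    rankOne_cond hP hE hA hR hst hpr hsp htr hsr htp⟩
  intro hAB
  obtain ⟨σ, hσ⟩ := hE n F p r hpr 1
  have hσA : σ ∈ T p r := (hP n F p r hpr σ).mpr ⟨1, hσ⟩
  rw [hAB] at hσA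
  obtain ⟨d, hd⟩ := (hP n F s t hst σ).mp hσA
  have h1 := hσ s
  rw [hd s, hsr, hsp, B_line_zero hst, B_self_zero hst.2.1] at h1
  simp only [mul_zero, zero_smul, add_zero, sub_zero, mul_one, one_smul] at h1
  have hr0 : r = 0 := by
    have : s - r = s := h1.symm
    rw [sub_eq_self] at this
    exact this
  rw [hr0, B_zero_left] at hrt
  exact zero_ne_one hrt

end Cfsg.Agent.Lib.Helper94.Siegel
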